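import Cfsg.Agent.H191.E8Dims
import Cfsg.Agent.H186.ExcClass
import Cfsg.Agent.H186.FusEmb

/-!
# Toral elements of order three of `E₈` and the weight multiplicities of `3^6 ≤ A_18` (S2654, T3a (2), (3))
-/

set_option autoImplicit false

namespace Cfsg.Agent.H191.E8Toral

open Cfsg.Lie Cfsg.Agent.ChevalleyStructure Cfsg.Agent.ChevalleyStructure.Elts
  Cfsg.Agent.ChevalleyStructure.RootCombGood Cfsg.Agent.ChevalleyStructure.NPerm Cfsg.Agent.H190
  Cfsg.Agent.H186 Cfsg.Agent.H224.E8 Cfsg.Agent.H191.E8Weights Module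

universe u

section Diag

variable {ι K : Type*} [Fintype ι] [DecidableEq ι] [Field K] [DecidableEq K]

/-- dimension of the eigenspace of a diagonal matrix -/
theorem finrank_diagonal (δ : ι → K) (μ : K) :
    finrank K (End.eigenspace (Matrix.toLin' (Matrix.diagonal δ)) μ) = (Finset.univ.filter fun i => δ i = μ).card := by
  have h1 : End.eigenspace (Matrix.toLin' (Matrix.diagonal δ)) μ =
      LinearMap.ker (Matrix.toLin' (Matrix.diagonal fun i => δ i - μ)) := by
    ext v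
    rw [End.mem_eigenspace_iff, LinearMap.mem_ker, Matrix.toLin'_apply, Matrix.toLin'_apply]
    constructor
    · intro h
      funext i
      have := congrFun h i
      rw [Matrix.mulVec_diagonal] at this ⊢
      rw [sub_mul, this]
      simp
    · intro h
      funext i
      have := congrFun h i
      rw [Matrix.mulVec_diagonal] at this ⊢
      rw [sub_mul, Pi.zero_apply, sub_eq_zero] at this
      rw [this]; rfl
  have h2 := LinearMap.finrank_range_add_finrank_ker (Matrix.toLin' (Matrix.diagonal fun i => δ i - μ))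
  have h3 : finrank K (LinearMap.range (Matrix.toLin' (Matrix.diagonal fun i => δ i - μ))) =
      Fintype.card {i // δ i - μ ≠ 0} := Matrix.rank_diagonal _
  rw [h3, Fintype.card_subtype, Module.finrank_fintype_fun_eq_card] at h2
  rw [h1]
  have h4 := Finset.card_filter_add_card_filter_not (s := (Finset.univ : Finset ι)) (fun i => δ i = μ)
  have h5 : (Finset.univ.filter fun i => δ i - μ ≠ 0) = Finset.univ.filter fun i => ¬ δ i = μ := by
    ext i
    simp [sub_eq_zero]
  rw [h5] at h2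
  rw [Finset.card_univ] at h4
  omega

end Diag

variable {K : Type u} [Field K]

/-- the representation on `K ^ 248` -/
noncomputable def rep {P : Subgroup ↥(alternatingGroup (Fin 18))} (fe : FusEmb chevE8 K 18 P) :
    ↥P →* End K (chevE8.Idx → K) :=
  ((Matrix.toLinAlgEquiv' : Matrix chevE8.Idx chevE8.Idx K ≃ₐ[K] End K (chevE8.Idx → K)).toMulEquiv.toMonoidHom).comp
    ((Units.coeHom _).comp ((chevE8.group K).subtype.comp fe.s))

theorem rep_apply {P : Subgroup ↥(alternatingGroup (Fin 18))} (fe : FusEmb chevE8 K 18 P) (q : ↥P) :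
    rep fe q = Matrix.toLin' (((fe.s q : ↥(chevE8.group K)) : GL chevE8.Idx K) : Matrix chevE8.Idx chevE8.Idx K) := rfl

theorem fus_rep (fe : FusEmb chevE8 K 18 P18) : Fus (rep fe) := by
  intro a Q hQ hQ'
  obtain ⟨h, hh⟩ := fe.fus a Q hQ hQ'
  let g : GL chevE8.Idx K := h
  refine ⟨Matrix.toLin'OfInv (M := ((g⁻¹ : GL chevE8.Idx K) : Matrix chevE8.Idx chevE8.Idx K))
    (M' := (g : Matrix chevE8.Idx chevE8.Idx K)) (Units.inv_mul g) (Units.mul_inv g), ?_⟩
  intro q hq v
  show Matrix.toLin' (g : Matrix chevE8.Idx chevE8.Idx K) (rep fe ⟨q, hQ hq⟩ v) =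
    rep fe ⟨a * q * a⁻¹, hQ' q hq⟩ (Matrix.toLin' (g : Matrix chevE8.Idx chevE8.Idx K) v)
  rw [rep_apply, rep_apply, ← hh q hq]
  simp only [Matrix.toLin'_apply, Matrix.mulVec_mulVec]
  congr 1
  show (g : Matrix chevE8.Idx chevE8.Idx K) * _ = ((h * fe.s ⟨q, hQ hq⟩ * h⁻¹ : ↥(chevE8.group K)) : GL chevE8.Idx K) *
    (g : Matrix chevE8.Idx chevE8.Idx K)
  rw [← Units.val_mul, ← Units.val_mul]
  congr 1
  show g * _ = (h : GL chevE8.Idx K) * _ * (h : GL chevE8.Idx K)⁻¹ * g
  rw [inv_mul_cancel_right]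

theorem rankE8 : chevE8.rank = 8 := rfl

theorem card_idx : Fintype.card chevE8.Idx = 248 := by
  show Fintype.card (Fin 8 ⊕ Fin 240) = 248
  simp

/-- conjugate elements have fixed spaces of the same dimension -/
theorem finrank_conj {ρ : ↥P18 →* End K (chevE8.Idx → K)} (hf : Fus ρ) {q q' : ↥P18} {a : ↥(alternatingGroup (Fin 18))}
    (h : a * (q : ↥(alternatingGroup (Fin 18))) * a⁻¹ = q') (μ : K) :
    finrank K (End.eigenspace (ρ q) μ) = finrank K (End.eigenspace (ρ q') μ) := by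
  have hQ : Subgroup.zpowers (q : ↥(alternatingGroup (Fin 18))) ≤ P18 := by
    rw [Subgroup.zpowers_le]; exact q.2
  have hQ' : ∀ y ∈ Subgroup.zpowers (q : ↥(alternatingGroup (Fin 18))), a * y * a⁻¹ ∈ P18 := by
    rintro _ ⟨m, rfl⟩
    show a * (q : ↥(alternatingGroup (Fin 18))) ^ m * a⁻¹ ∈ P18
    rw [← conj_zpow, h]
    exact Subgroup.zpow_mem _ q'.2 m
  obtain ⟨g, hg⟩ := hf a _ hQ hQ'
  have h1 : ∀ v, g (ρ q v) = ρ q' (g v) := by
    intro v
    have h2 := hg q (Subgroup.mem_zpowers _) v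
    have h3 : (⟨a * (q : ↥(alternatingGroup (Fin 18))) * a⁻¹, hQ' q (Subgroup.mem_zpowers _)⟩ : ↥P18) = q' := Subtype.ext h
    rw [h3] at h2
    exact h2
  have h2 : (End.eigenspace (ρ q) μ).map (g : (chevE8.Idx → K) →ₗ[K] (chevE8.Idx → K)) = End.eigenspace (ρ q') μ := by
    apply le_antisymm
    · rintro _ ⟨v, hv, rfl⟩
      rw [SetLike.mem_coe, End.mem_eigenspace_iff] at hv
      rw [End.mem_eigenspace_iff]
      show ρ q' (g v) = μ • g v
      rw [← h1, hv, map_smul]
    · intro v hv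
      rw [End.mem_eigenspace_iff] at hv
      refine ⟨g.symm v, ?_, g.apply_symm_apply v⟩
      rw [SetLike.mem_coe, End.mem_eigenspace_iff]
      apply g.injective
      rw [h1, map_smul, g.apply_symm_apply, hv]
  rw [← h2]
  exact (LinearEquiv.finrank_map_eq g _).symm

/-- **the fixed space of a toral element of order three** -/
theorem finrank_toral [DecidableEq K] {w : K} (hw : IsPrimitiveRoot w 3) (fe : FusEmb chevE8 K 18 P18) {q : ↥P18}
    (hq1 : q ≠ 1) (hq3 : q ^ 3 = 1) (ht : fe.s q ∈ TG chevE8 K) :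
    finrank K (End.eigenspace (rep fe q) 1) = 80 ∨ finrank K (End.eigenspace (rep fe q) 1) = 86 ∨
      finrank K (End.eigenspace (rep fe q) 1) = 92 ∨ finrank K (End.eigenspace (rep fe q) 1) = 134 := by
  have hD : InList chevE8 := by simp [InList]
  set t : GL chevE8.Idx K := (fe.s q : GL chevE8.Idx K) with htd
  have ht' : t ∈ chevE8.diagonalSubgroup K := ht
  have ht3 : t ^ 3 = 1 := by
    have : (fe.s q) ^ 3 = 1 := by rw [← map_pow, hq3, map_one]
    exact congrArg Subtype.val this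
  obtain ⟨χ, -, h1⟩ := HDiag.exists_dmat chevE8 hD t ht'
  have h2 : (t : Matrix chevE8.Idx chevE8.Idx K) = Matrix.diagonal (Sum.elim (fun _ => 1) χ) := h1.trans (HDiag.dmat_def _ _ _)
  obtain ⟨x, hx⟩ := exists_vec hD slE8 (by norm_num : 0 < 3) hw ht' ht3
  have h3 : ∀ r, ent t r = χ r := ent_of_dmat h1
  have h4 : finrank K (End.eigenspace (rep fe q) 1) = 8 + N1 chevE8 3 x 0 := by
    rw [rep_apply, ← htd, h2, finrank_diagonal]
    have h5 : (Finset.univ.filter fun i : chevE8.Idx => Sum.elim (fun _ => (1 : K)) χ i = 1).card =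
        (Finset.univ.filter fun _ : Fin chevE8.rank => (1 : K) = 1).card +
          (Finset.univ.filter fun r : Fin chevE8.nroots => χ r = 1).card := by
      rw [Finset.card_filter, Finset.card_filter, Finset.card_filter]
      exact Fintype.sum_sum_type _
    have e1 : (Finset.univ.filter fun _ : Fin chevE8.rank => (1 : K) = 1).card = 8 := by
      rw [Finset.filter_true_of_mem (fun _ _ => rfl), Finset.card_univ, Fintype.card_fin]
      exact rankE8
    have e2 : (Finset.univ.filter fun r : Fin chevE8.nroots => χ r = 1) =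
        Finset.univ.filter fun r : Fin chevE8.nroots => ((val chevE8 x r : ℤ) : ZMod 3) = 0 := by
      ext r
      rw [Finset.mem_filter, Finset.mem_filter, ← h3, hx]
      have h6 : w ^ val chevE8 x r = 1 ↔ ((3 : ℕ) : ℤ) ∣ val chevE8 x r := hw.zpow_eq_one_iff_dvd _
      rw [h6, ← ZMod.intCast_zmod_eq_zero_iff_dvd]
    rw [h5, e1, e2]
    rfl
  have h7 := class3 x
  have h8 : finrank K (End.eigenspace (rep fe q) 1) ≠ 248 := by
    intro h9
    apply hq1
    apply fe.inj
    rw [map_one]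
    apply Subtype.ext
    apply Units.ext
    have h10 : End.eigenspace (rep fe q) 1 = ⊤ := by
      apply Submodule.eq_top_of_finrank_eq
      rw [h9, Module.finrank_fintype_fun_eq_card, card_idx]
    have h11 : rep fe q = 1 := by
      refine LinearMap.ext fun v => ?_
      have : v ∈ End.eigenspace (rep fe q) 1 := h10 ▸ Submodule.mem_top
      rw [End.mem_eigenspace_iff, one_smul] at this
      exact this
    rw [rep_apply] at h11
    apply Matrix.toLin'.injective
    rw [h11]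
    show _ = Matrix.toLin' (1 : Matrix chevE8.Idx chevE8.Idx K)
    rw [Matrix.toLin'_one]
    rfl
  simp only [List.mem_cons, List.not_mem_nil, or_false] at h7
  omega

/-! ### The multiplicities -/

theorem finrank_fix {ρ : ↥P18 →* End K (chevE8.Idx → K)} {w : K} (hw : IsPrimitiveRoot w 3) {D : ℕ → ℕ}
    (hD : ∀ lam, finrank K (wsp w ρ lam) = D (nz lam)) (q : ↥P18) (φ : (Fin 6 → ZMod 3) → ZMod 3)
    (hT : ∀ lam, ∀ v ∈ wsp w ρ lam, ρ q v = w ^ (φ lam).val • v) :
    finrank K (End.eigenspace (ρ q) 1) =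
      ∑ k : Fin 7, (Finset.univ.filter fun lam => φ lam = 0 ∧ nz lam = k).card * D k := by
  have h1 := finrank_eigen hw (ρ q) φ hT 0
  rw [ZMod.val_zero, pow_zero] at h1
  rw [h1, ← sum_D D fun lam => φ lam = 0]
  exact Finset.sum_congr rfl fun lam _ => hD lam

theorem ne_one_of_conj {q : ↥P18} {a y : ↥(alternatingGroup (Fin 18))} (h : a * (q : ↥(alternatingGroup (Fin 18))) * a⁻¹ = y)
    (hy : y ≠ 1) : q ≠ 1 := by
  rintro rfl
  apply hy
  rw [← h]
  simp

theorem cube_of_conj {q : ↥P18} {a y : ↥(alternatingGroup (Fin 18))} (h : a * (q : ↥(alternatingGroup (Fin 18))) * a⁻¹ = y)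
    (hy : y ^ 3 = 1) : q ^ 3 = 1 := by
  apply Subtype.ext
  show (q : ↥(alternatingGroup (Fin 18))) ^ 3 = 1
  rw [← h, conj_pow, mul_inv_eq_one, mul_eq_left] at hy
  exact hy

theorem y2_ne : x 0 * x 1 ≠ 1 := by
  intro h
  have h1 : xp 0 * xp 1 = 1 := congrArg Subtype.val h
  exact absurd h1 (by decide +kernel)

theorem y3_ne : x 0 * x 1 * x 2 ≠ 1 := by
  intro h
  have h1 : xp 0 * xp 1 * xp 2 = 1 := congrArg Subtype.val h
  exact absurd h1 (by decide +kernel)

theorem y2_cube : (x 0 * x 1) ^ 3 = 1 := by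
  rw [Commute.mul_pow (x_comm 0 1), x_cube, x_cube, one_mul]

theorem y3_cube : (x 0 * x 1 * x 2) ^ 3 = 1 := by
  rw [Commute.mul_pow (Commute.mul_left (x_comm 0 2) (x_comm 1 2)), y2_cube, x_cube, one_mul]

/-- **T3a (2) + (3)**: if some element of type `3^2` and some element of type `3^3` are toral then the weight spaces with
three to five nonzero coordinates are zero and those with six nonzero coordinates have dimension two. -/
theorem dims {w : K} (hw : IsPrimitiveRoot w 3) (fe : FusEmb chevE8 K 18 P18)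
    (h2 : ∃ q : ↥P18, (∃ a : ↥(alternatingGroup (Fin 18)), a * (q : ↥(alternatingGroup (Fin 18))) * a⁻¹ = x 0 * x 1) ∧
      fe.s q ∈ TG chevE8 K)
    (h3 : ∃ q : ↥P18, (∃ a : ↥(alternatingGroup (Fin 18)), a * (q : ↥(alternatingGroup (Fin 18))) * a⁻¹ = x 0 * x 1 * x 2) ∧
      fe.s q ∈ TG chevE8 K) :
    (∀ lam, 3 ≤ nz lam → nz lam ≤ 5 → wsp w (rep fe) lam = ⊥) ∧
      ∀ lam, nz lam = 6 → finrank K (wsp w (rep fe) lam) = 2 := by
  classical
  obtain ⟨D, hD⟩ := exists_dim (ρ := rep fe) hw (fus_rep fe)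
  obtain ⟨q2, ⟨a2, ha2⟩, ht2⟩ := h2
  obtain ⟨q3, ⟨a3, ha3⟩, ht3⟩ := h3
  have e2 := finrank_toral hw fe (ne_one_of_conj ha2 y2_ne) (cube_of_conj ha2 y2_cube) ht2
  have e3 := finrank_toral hw fe (ne_one_of_conj ha3 y3_ne) (cube_of_conj ha3 y3_cube) ht3
  rw [finrank_conj (fus_rep fe) (q' := xP 0 * xP 1) (a := a2) ha2 1] at e2
  rw [finrank_conj (fus_rep fe) (q' := xP 0 * xP 1 * xP 2) (a := a3) ha3 1] at e3
  have s0 := finrank_fix (ρ := rep fe) hw hD 1 (fun _ => 0) (by
    intro lam v _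
    rw [map_one, ZMod.val_zero, pow_zero, one_smul]
    rfl)
  have s2 := finrank_fix (ρ := rep fe) hw hD (xP 0 * xP 1) (fun lam => lam 0 + lam 1) (by
    intro lam v hv
    rw [map_mul, End.mul_apply, hv 1, map_smul, hv 0, smul_smul, mul_comm, pow_val_add hw])
  have s3 := finrank_fix (ρ := rep fe) hw hD (xP 0 * xP 1 * xP 2) (fun lam => lam 0 + lam 1 + lam 2) (by
    intro lam v hv
    rw [map_mul, map_mul, End.mul_apply, End.mul_apply, hv 2, map_smul, map_smul, hv 1, map_smul, hv 0, smul_smul, smul_smul,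
      pow_val_add hw, pow_val_add hw, add_comm (lam 2), add_comm _ (lam 0), ← add_assoc])
  rw [map_one] at s0
  have h248 : finrank K (End.eigenspace (1 : End K (chevE8.Idx → K)) 1) = 248 := by
    have : End.eigenspace (1 : End K (chevE8.Idx → K)) 1 = ⊤ := by
      rw [eq_top_iff]
      intro v _
      rw [End.mem_eigenspace_iff, one_smul]
      rfl
    rw [this, finrank_top, Module.finrank_fintype_fun_eq_card, card_idx]
  rw [h248] at s0
  have t0 : ∀ k : Fin 7, (Finset.univ.filter fun lam : Fin 6 → ZMod 3 => (0 : ZMod 3) = 0 ∧ nz lam = k).card =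
      (![1, 12, 60, 160, 240, 192, 64] : Fin 7 → ℕ) k := by
    intro k
    rw [← cnt0 k]
    congr 1
    ext lam
    simp
  replace s0 := s0.trans (Finset.sum_congr rfl fun k _ => congrArg (· * D k) (t0 k))
  replace s2 := s2.trans (Finset.sum_congr rfl fun k _ => congrArg (· * D k) (cnt2 k))
  replace s3 := s3.trans (Finset.sum_congr rfl fun k _ => congrArg (· * D k) (cnt3 k))
  rw [sum_fin7] at s0 s2 s3
  rw [s2] at e2
  rw [s3] at e3
  have key := solve (d0 := D 0) (d1 := D 1) (d2 := D 2) (d3 := D 3) (d4 := D 4) (d5 := D 5) (d6 := D 6) (f2 := _) (f3 := _)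
    (by rw [s0]; simp) rfl rfl
    (by convert e2 using 2 <;> simp) (by convert e3 using 2 <;> simp)
  obtain ⟨k3, k4, k5, k6⟩ := key
  constructor
  · intro lam h5 h6
    rw [← Submodule.finrank_eq_zero (R := K), hD]
    have h7 : nz lam = 3 ∨ nz lam = 4 ∨ nz lam = 5 := by omega
    rcases h7 with h7 | h7 | h7 <;> rw [h7] <;> assumption
  · intro lam h5
    rw [hD, h5, k6]

/-! ### The four conjugations -/

def g1 : Equiv.Perm (Fin 18) := sw [(1, 2), (16, 17)]
def g2 : Equiv.Perm (Fin 18) :=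
  sw [(16, 17), (0, 9), (1, 10), (2, 11), (3, 12), (4, 13), (5, 14), (6, 15), (7, 16), (8, 17)]
def g3 : Equiv.Perm (Fin 18) :=
  sw [(1, 2), (0, 9), (1, 10), (2, 11), (3, 12), (4, 13), (5, 14), (6, 15), (7, 16), (8, 17)]

theorem g1_mem : g1 ∈ alternatingGroup (Fin 18) := sw_mem _ (by decide +kernel) (by decide +kernel)
theorem g2_mem : g2 ∈ alternatingGroup (Fin 18) := sw_mem _ (by decide +kernel) (by decide +kernel)
theorem g3_mem : g3 ∈ alternatingGroup (Fin 18) := sw_mem _ (by decide +kernel) (by decide +kernel)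

/-- **T3a (2) + (3)** from the conclusion of (1) -/
theorem dims_of {w : K} (hw : IsPrimitiveRoot w 3) (fe : FusEmb chevE8 K 18 P18)
    (h : (fe.s (xP 0 * xP 1 * xP 2) ∈ TG chevE8 K ∧ fe.s ((xP 0)⁻¹ * xP 1) ∈ TG chevE8 K) ∨
      (fe.s (xP 3 * xP 4 * xP 5) ∈ TG chevE8 K ∧ fe.s ((xP 3)⁻¹ * xP 4) ∈ TG chevE8 K)) :
    (∀ lam, 3 ≤ nz lam → nz lam ≤ 5 → wsp w (rep fe) lam = ⊥) ∧
      ∀ lam, nz lam = 6 → finrank K (wsp w (rep fe) lam) = 2 := by
  rcases h with ⟨h1, h2⟩ | ⟨h1, h2⟩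
  · refine dims hw fe ⟨_, ⟨⟨g1, g1_mem⟩, Subtype.ext ?_⟩, h2⟩ ⟨_, ⟨1, ?_⟩, h1⟩
    · have : g1 * ((xp 0)⁻¹ * xp 1) * g1⁻¹ = xp 0 * xp 1 := by decide +kernel
      exact this
    · rw [one_mul, inv_one, mul_one]; rfl
  · refine dims hw fe ⟨_, ⟨⟨g3, g3_mem⟩, Subtype.ext ?_⟩, h2⟩ ⟨_, ⟨⟨g2, g2_mem⟩, Subtype.ext ?_⟩, h1⟩
    · have : g3 * ((xp 3)⁻¹ * xp 4) * g3⁻¹ = xp 0 * xp 1 := by decide +kernel
      exact this
    · have : g2 * (xp 3 * xp 4 * xp 5) * g2⁻¹ = xp 0 * xp 1 * xp 2 := by decide +kernel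
      exact this

end Cfsg.Agent.H191.E8Toral
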